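import Cfsg.Agent.S0205
import Cfsg.Agent.S1225
import Cfsg.Agent.S0202
import Cfsg.Agent.S0203

/-! Groups of automorphisms all of whose orbits on nontrivial elements have the same size. -/

set_option autoImplicit false
open MulAction Subgroup
open scoped Pointwise

namespace Cfsg.Agent.Neu.H32

variable {T H : Type*} [Group T] [Finite T] [Group H] [Finite H] [MulDistribMulAction H T]

theorem fix_of_not_dvd {X : Type*} [MulAction H X] {p : ℕ} [Fact p.Prime] {R : Subgroup H}
    (hR : IsPGroup p R) (Y : Set X) (hY : ∀ g ∈ R, ∀ y ∈ Y, g • y ∈ Y) (hp : ¬ p ∣ Nat.card Y) :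
    ∃ y ∈ Y, ∀ g ∈ R, g • y = y := by
  let S : SubMulAction R X := ⟨Y, fun g y hy => hY g g.2 y hy⟩
  obtain ⟨y, hy⟩ := hR.nonempty_fixed_point_of_prime_not_dvd_card S hp
  exact ⟨y, y.2, fun g hg => congrArg Subtype.val (hy ⟨g, hg⟩)⟩

structure HS (T H : Type*) [Group T] [Group H] [MulDistribMulAction H T] (c : ℕ) : Prop where
  card : ∀ x : T, x ≠ 1 → Nat.card (stabilizer H x) = c
  ne : c ≠ 1
  faith : ∀ h : H, (∀ x : T, h • x = x) → h = 1

variable {c : ℕ}

theorem HS.fpf (hS : HS T H c) (K : Subgroup H) (h : ¬ Nat.card K ∣ c) (hc : c ≠ 0) :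
    ∃ r : ℕ, r.Prime ∧ ∃ R : Subgroup H, R ≤ K ∧ IsPGroup r R ∧
      ∀ Y : Set T, (∀ g ∈ R, ∀ y ∈ Y, g • y ∈ Y) → (1 : T) ∉ Y → r ∣ Nat.card Y := by
  have : ∃ r k : ℕ, r.Prime ∧ r ^ k ∣ Nat.card K ∧ ¬ r ^ k ∣ c := by
    by_contra hh
    push Not at hh
    exact h ((Nat.dvd_iff_prime_pow_dvd_dvd _ _).2 fun p k hp => hh p k hp)
  obtain ⟨r, k, hr, h1, h2⟩ := this
  haveI := Fact.mk hr
  obtain ⟨R, hR⟩ := Sylow.exists_subgroup_card_pow_prime r h1
  refine ⟨r, hr, R.map K.subtype, map_subtype_le _, (IsPGroup.of_card hR).map _, fun Y hY h1Y => ?_⟩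
  by_contra hd
  obtain ⟨y, hy, hf⟩ := fix_of_not_dvd ((IsPGroup.of_card hR).map K.subtype) Y hY hd
  have hy1 : y ≠ 1 := fun e => h1Y (e ▸ hy)
  apply h2
  rw [← hS.card y hy1, ← hR, ← card_map_of_injective K.subtype_injective]
  exact card_dvd_of_le fun g hg => hf g hg

theorem HS.pos (hS : HS T H c) {x : T} (hx : x ≠ 1) : c ≠ 0 := by
  rw [← hS.card x hx]; exact Nat.card_pos.ne'

theorem HS.eq_of_le (hS : HS T H c) {x y : T} (hx : x ≠ 1) (hy : y ≠ 1)
    (h : stabilizer H x ≤ stabilizer H y) : stabilizer H x = stabilizer H y :=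
  eq_of_le_of_card_ge h (by rw [hS.card x hx, hS.card y hy])

theorem HS.not_all (hS : HS T H c) {x : T} (hx : x ≠ 1)
    (h : ∀ g : H, g • x = x → ∀ y : T, g • y = y) : False := by
  apply hS.ne
  rw [← hS.card x hx, card_eq_one]
  exact (eq_bot_iff_forall _).2 fun g hg => hS.faith g (h g hg)

theorem card_diff_one (M : Subgroup T) : Nat.card ↥((M : Set T) \ {1}) + 1 = Nat.card M := by
  rw [Nat.card_coe_set_eq, Set.ncard_diff_singleton_add_one M.one_mem]; rfl

omit [Finite T] [Finite H] in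
theorem smul_ne (g : H) {y : T} (hy : y ≠ 1) : g • y ≠ 1 := fun h => hy (by
  have := congrArg (g⁻¹ • ·) h; simpa using this)

theorem HS.simple (hS : HS T H c) (M : Subgroup T) (hM : ∀ g : H, ∀ x ∈ M, g • x ∈ M) :
    M = ⊥ ∨ M = ⊤ := by
  by_contra hh
  push Not at hh
  obtain ⟨h1, h2⟩ := hh
  obtain ⟨⟨y0, hy0⟩, hy1⟩ := (ne_bot_iff_exists_ne_one).1 h1
  have hy1 : y0 ≠ 1 := fun e => hy1 (Subtype.ext e)
  have key : ∀ x, x ∉ M → stabilizer H x = stabilizer H y0 := by
    intro x hx
    have hx1 : x ≠ 1 := fun e => hx (e ▸ M.one_mem)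
    let K : Subgroup H :=
      { carrier := {g | x⁻¹ * g • x ∈ M}
        one_mem' := by simp
        mul_mem' := fun {a b} ha hb => by
          have := M.mul_mem ha (hM a _ hb)
          simpa [smul_mul', mul_smul] using this
        inv_mem' := fun {a} ha => by
          have := M.inv_mem (hM a⁻¹ _ ha)
          simpa [smul_mul', mul_smul] using this }
    have hK : ∀ y, x⁻¹ * y ∈ M → stabilizer H y ≤ K := fun y hy g hg => by
      have h3 := M.mul_mem hy (M.inv_mem (hM g _ hy))
      rw [mem_stabilizer_iff] at hg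
      show x⁻¹ * g • x ∈ M
      simpa [smul_mul', hg, mul_assoc] using h3
    have hd : Nat.card K ∣ c := by
      by_contra hd
      obtain ⟨r, hr, R, hRK, -, hR⟩ := hS.fpf K hd (hS.pos hx1)
      have e1 := hR {y | x⁻¹ * y ∈ M} (fun g hg y hy => by
        have := M.mul_mem (hRK hg) (hM g _ hy)
        simpa [smul_mul', mul_assoc] using this) (by simpa using hx)
      have e2 := hR ((M : Set T) \ {1}) (fun g _ y hy => ⟨hM g y hy.1, smul_ne g hy.2⟩) (by simp)
      have e3 : Nat.card {y | x⁻¹ * y ∈ M} = Nat.card M :=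
        Nat.card_congr ((Equiv.mulLeft x⁻¹).subtypeEquiv fun y => Iff.rfl)
      rw [e3, ← card_diff_one] at e1
      exact hr.not_dvd_one ((Nat.dvd_add_right e2).1 e1)
    have hK' : ∀ y, x⁻¹ * y ∈ M → stabilizer H y = K := fun y hy =>
      eq_of_le_of_card_ge (hK y hy) (by
        rw [hS.card y (fun e => hx (by simpa [e] using hy))]
        exact Nat.le_of_dvd (Nat.pos_of_ne_zero (hS.pos hx1)) hd)
    refine hS.eq_of_le hx1 hy1 fun g hg => ?_
    have h3 : g ∈ stabilizer H (x * y0) := by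
      rw [hK' (x * y0) (by simpa using hy0), ← hK' x (by simp)]; exact hg
    rw [mem_stabilizer_iff] at *
    rwa [smul_mul', hg, mul_right_inj] at h3
  obtain ⟨x, hx⟩ : ∃ x, x ∉ M := by
    by_contra hh; push Not at hh; exact h2 (eq_top_iff.2 fun x _ => hh x)
  refine hS.not_all hy1 fun g hg y => ?_
  have hk : ∀ z, z ∉ M → g • z = z := fun z hz => by
    have : g ∈ stabilizer H z := by rw [key z hz]; exact hg
    exact this
  by_cases hy : y ∈ M
  · have := hk (x * y) (fun h => hx (by simpa using M.mul_mem h (M.inv_mem hy)))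
    rwa [smul_mul', hk x hx, mul_right_inj] at this
  · exact hk y hy

variable (H) in
/-- The block of the invariant partition. -/
def B (x : T) : Subgroup T where
  carrier := {y | ∀ t : T, ∀ g : H, g • (t * x * t⁻¹) = t * x * t⁻¹ → g • (t * y * t⁻¹) = t * y * t⁻¹}
  one_mem' := fun t g _ => by simp
  mul_mem' := fun {a b} ha hb t g hg => by
    have : t * (a * b) * t⁻¹ = (t * a * t⁻¹) * (t * b * t⁻¹) := by group
    rw [this, smul_mul', ha t g hg, hb t g hg]
  inv_mem' := fun {a} ha t g hg => by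
    have : t * a⁻¹ * t⁻¹ = (t * a * t⁻¹)⁻¹ := by group
    rw [this, smul_inv', ha t g hg]

omit [Finite T] [Finite H] in
theorem self_mem (x : T) : x ∈ B H x := fun _ _ h => h

theorem HS.B_eq (hS : HS T H c) {x y : T} (hx : x ≠ 1) (hy : y ≠ 1) (h : y ∈ B H x) :
    B H y = B H x := by
  have : ∀ t : T, stabilizer H (t * x * t⁻¹) = stabilizer H (t * y * t⁻¹) := fun t =>
    hS.eq_of_le (by simpa using hx) (by simpa using hy) fun g hg => h t g hg
  have h2 : ∀ t : T, ∀ g : H, g • (t * x * t⁻¹) = t * x * t⁻¹ ↔ g • (t * y * t⁻¹) = t * y * t⁻¹ :=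
    fun t g => by rw [← mem_stabilizer_iff, this, mem_stabilizer_iff]
  ext z
  exact ⟨fun hz t g hg => hz t g ((h2 t g).1 hg), fun hz t g hg => hz t g ((h2 t g).2 hg)⟩

omit [Finite T] [Finite H] in
theorem conj_mem {x y : T} (s : T) (h : y ∈ B H x) : s * y * s⁻¹ ∈ B H (s * x * s⁻¹) := by
  intro t g hg
  have e : ∀ z : T, t * (s * z * s⁻¹) * t⁻¹ = (t * s) * z * (t * s)⁻¹ := fun z => by group
  rw [e] at hg ⊢
  exact h _ g hg

omit [Finite T] [Finite H] in
theorem smul_mem {x y : T} (k : H) (h : y ∈ B H x) : k • y ∈ B H (k • x) := by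
  intro t g hg
  have e : ∀ z : T, t * (k • z) * t⁻¹ = k • ((k⁻¹ • t) * z * (k⁻¹ • t)⁻¹) := fun z => by
    simp [smul_mul']
  rw [e] at hg ⊢
  have := h (k⁻¹ • t) (k⁻¹ * g * k) (by rw [mul_smul, mul_smul, hg, inv_smul_smul])
  rw [mul_smul, mul_smul, inv_smul_eq_iff] at this
  exact this

theorem HS.B_ne_top (hS : HS T H c) {x : T} (hx : x ≠ 1) : B H x ≠ ⊤ := fun h =>
  hS.not_all hx fun g hg y => by
    have : y ∈ B H x := h ▸ mem_top y
    simpa using this 1 g (by simpa using hg)

theorem HS.mem_of_comm (hS : HS T H c) {z a : T} (hz : z ≠ 1) (hz2 : z ^ 2 = 1) (ha : a ^ 2 ≠ 1)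
    (h : Commute z a) : a ∈ B H z := by
  have e : (z * a) ^ 2 = a ^ 2 := by rw [h.mul_pow, hz2, one_mul]
  have h1 : z * a ≠ 1 := fun h1 => ha (by rw [← e, h1, one_pow])
  have h2 : a ≠ 1 := fun h1 => ha (by rw [h1, one_pow])
  have h3 := hS.B_eq h1 ha (e ▸ pow_mem (self_mem _) 2)
  have h4 := hS.B_eq h2 ha (pow_mem (self_mem _) 2)
  have h5 : z * a ∈ B H a := by rw [← h4, h3]; exact self_mem _
  have h6 : z ∈ B H a := by simpa using mul_mem h5 (inv_mem (self_mem a))
  rw [hS.B_eq h2 hz h6]; exact self_mem _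

theorem mem_of_odd_index {B L : Subgroup T} (hL : L ≤ normalizer (B : Set T)) (hB : ¬ 2 ∣ B.index)
    {u : T} (hu : u ∈ L) {k : ℕ} (hu2 : u ^ 2 ^ k = 1) : u ∈ B := by
  haveI : (B.subgroupOf L).Normal := normal_subgroupOf_of_le_normalizer hL
  have h1 : ¬ 2 ∣ (B.subgroupOf L).index := by
    intro h
    apply hB
    have h2 : B.relIndex (normalizer (B : Set T)) ∣ B.index := relIndex_dvd_index_of_le le_normalizer
    refine h.trans (dvd_trans ?_ h2)
    haveI : (B.subgroupOf (normalizer (B : Set T))).Normal := normal_in_normalizer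
    have h3 := relIndex_dvd_index_of_normal (B.subgroupOf (normalizer (B : Set T)))
      (L.subgroupOf (normalizer (B : Set T)))
    rwa [relIndex_subgroupOf hL] at h3
  have h3 : orderOf (QuotientGroup.mk' (B.subgroupOf L) ⟨u, hu⟩) = 1 := by
    have a1 : orderOf (QuotientGroup.mk' (B.subgroupOf L) ⟨u, hu⟩) ∣ 2 ^ k :=
      orderOf_dvd_of_pow_eq_one (by
        rw [← map_pow]; have : (⟨u, hu⟩ : L) ^ 2 ^ k = 1 := Subtype.ext hu2
        rw [this, map_one])
    have a2 : orderOf (QuotientGroup.mk' (B.subgroupOf L) ⟨u, hu⟩) ∣ (B.subgroupOf L).index :=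
      orderOf_dvd_natCard _
    exact Nat.eq_one_of_dvd_coprimes
      (Nat.Coprime.pow_left k ((Nat.prime_two.coprime_iff_not_dvd).2 h1)) a1 a2
  rw [orderOf_eq_one_iff, QuotientGroup.mk'_apply, QuotientGroup.eq_one_iff] at h3
  exact h3

theorem two_iff {u : T} : orderOf u = 2 ↔ u ≠ 1 ∧ u ^ 2 = 1 :=
  haveI := Fact.mk Nat.prime_two
  ⟨fun h => ⟨fun e => by simp [e] at h, h ▸ pow_orderOf_eq_one u⟩,
    fun h => orderOf_eq_prime h.2 h.1⟩

omit [Finite T] [Finite H] in
theorem order_smul (g : H) (u : T) : orderOf (g • u) = orderOf u :=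
  (MulDistribMulAction.toMulEquiv T g).orderOf_eq u

/-- Either `B` is everything or all involutions are conjugate. -/
theorem HS.ti (hS : HS T H c) (B : Subgroup T) (hB : ¬ 2 ∣ B.index) {z : T} (hz : orderOf z = 2)
    (hzB : z ∈ B) (hti : ∀ t u : T, orderOf u = 2 → u ∈ B → t * u * t⁻¹ ∈ B →
      t ∈ normalizer (B : Set T)) :
    B = ⊤ ∨ ∀ a b : T, orderOf a = 2 → orderOf b = 2 → IsConj a b := by
  haveI := Fact.mk Nat.prime_two
  by_cases hL : normalizer (B : Set T) = ⊤
  · left
    have hI : ∀ u : T, orderOf u = 2 → u ∈ B := fun u hu =>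
      mem_of_odd_index (L := ⊤) hL.ge hB (mem_top u) (k := 1) (by simpa using (two_iff.1 hu).2)
    rcases hS.simple (closure {u | orderOf u = 2}) (fun g x hx => by
      induction hx using closure_induction with
      | mem x hx => exact subset_closure (by simpa [order_smul] using hx)
      | one => simp
      | mul x y _ _ hx hy => rw [smul_mul']; exact mul_mem hx hy
      | inv x _ hx => rw [smul_inv']; exact inv_mem hx) with h | h
    · exact absurd (h ▸ subset_closure hz : z ∈ (⊥ : Subgroup T)) (two_iff.1 hz).1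
    · exact eq_top_iff.2 (h ▸ (closure_le _).2 hI)
  · right
    have hI : ∀ u ∈ normalizer (B : Set T), orderOf u = 2 → u ∈ B := fun u hu h2 =>
      mem_of_odd_index le_rfl hB hu (k := 1) (by simpa using (two_iff.1 h2).2)
    have hse : IsStronglyEmbedded (normalizer (B : Set T)) := by
      refine ⟨hL, even_iff_two_dvd.2 (hz ▸ orderOf_dvd_natCard _ (le_normalizer hzB)), fun g hg => ?_⟩
      rw [← Nat.not_even_iff_odd, even_iff_two_dvd]
      intro h
      obtain ⟨⟨u, hu1, v, hv, hu2⟩, hu⟩ := exists_prime_orderOf_dvd_card' 2 h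
      rw [← orderOf_coe] at hu
      have e : g * v * g⁻¹ = u := hu2
      have hv2 : orderOf v = 2 := by
        rw [← hu]; simp only; rw [← e]; exact ((MulAut.conj g).orderOf_eq v).symm
      exact hg (hti g v hv2 (hI v hv hv2) (e ▸ hI u hu1 hu))
    obtain ⟨g, hg⟩ : ∃ g, g ∉ normalizer (B : Set T) := by
      by_contra hh; push Not at hh; exact hL (eq_top_iff.2 fun x _ => hh x)
    have h2 : orderOf (g * z * g⁻¹) = 2 := hz ▸ (MulAut.conj g).orderOf_eq z
    exact (S1225.result _ hse _ h2 (fun h => hg (hti g z hz hzB (hI _ h h2))) z z hz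
      (le_normalizer hzB) hz (le_normalizer hzB)).2

theorem card_conj_dvd (z : T) : Nat.card {u | IsConj z u} ∣ Nat.card T := by
  have : {u | IsConj z u} = orbit (ConjAct T) z := by
    ext u; rw [ConjAct.mem_orbit_conjAct]; exact isConj_comm
  rw [this, Nat.card_coe_set_eq, ← index_stabilizer]
  exact index_dvd_card _

theorem HS.idx (hS : HS T H c) {z a s s' : T} (hz : orderOf z = 2) (ha : a ^ 2 ≠ 1)
    (hza : Commute z a) (hs : Commute z s) (hs' : Commute z s') (h1 : s ∉ B H z)
    (h2 : s' ∉ B H z) : s * s' ∈ B H z := by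
  obtain ⟨hz1, hz2⟩ := two_iff.1 hz
  have haB := hS.mem_of_comm hz1 hz2 ha hza
  have k : ∀ t, Commute z t → t ∉ B H z → t * a * t⁻¹ = a⁻¹ := fun t ht hB => by
    have e1 : t ^ 2 = 1 := by by_contra h; exact hB (hS.mem_of_comm hz1 hz2 h ht)
    have e2 : (t * a) ^ 2 = 1 := by
      by_contra h
      exact hB (by simpa using mul_mem (hS.mem_of_comm hz1 hz2 h (ht.mul_right hza)) (inv_mem haB))
    rw [sq] at e1 e2
    rw [inv_eq_of_mul_eq_one_right e1, eq_inv_iff_mul_eq_one, ← e2]; group
  by_contra h3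
  have e := k _ (hs.mul_right hs') h3
  have e2 : s * s' * a * (s * s')⁻¹ = a := by
    have : s * s' * a * (s * s')⁻¹ = s * (s' * a * s'⁻¹) * s⁻¹ := by group
    rw [this, k s' hs' h2]
    have : s * a⁻¹ * s⁻¹ = (s * a * s⁻¹)⁻¹ := by group
    rw [this, k s hs h1, inv_inv]
  rw [e2] at e
  exact ha (by rw [sq]; nth_rewrite 1 [e]; simp)

theorem HS.top_fpf (hS : HS T H c) {x : T} (hx : x ≠ 1) : ∃ p : ℕ, p.Prime ∧ ¬ p ∣ Nat.card T ∧
    ∃ R : Subgroup H, IsPGroup p R ∧
      ∀ Y : Set T, (∀ g ∈ R, ∀ y ∈ Y, g • y ∈ Y) → (1 : T) ∉ Y → p ∣ Nat.card Y := by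
  obtain ⟨p, hp, R, -, hR, hY⟩ := hS.fpf ⊤ (fun h => by
    refine hS.not_all hx fun g _ y => ?_
    by_cases hy : y = 1
    · simp [hy]
    · have : stabilizer H y = ⊤ := (eq_of_le_of_card_ge le_top (by
        rw [hS.card y hy]; exact Nat.le_of_dvd (Nat.pos_of_ne_zero (hS.pos hx)) h))
      have h2 : g ∈ stabilizer H y := this ▸ mem_top g
      exact h2) (hS.pos hx)
  refine ⟨p, hp, fun h => ?_, R, hR, hY⟩
  have e2 := hY (((⊤ : Subgroup T) : Set T) \ {1}) (fun g _ y hy => ⟨mem_top _, smul_ne g hy.2⟩)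
    (by simp)
  rw [← card_top, ← card_diff_one] at h
  exact hp.not_dvd_one ((Nat.dvd_add_right e2).1 h)

theorem HS.two_group (hS : HS T H c) (h2 : 2 ∣ Nat.card T) : IsPGroup 2 T := by
  haveI := Fact.mk Nat.prime_two
  obtain ⟨z0, hz0⟩ := exists_prime_orderOf_dvd_card' 2 h2
  obtain ⟨p, hp, hpT, R, hR, hY⟩ := hS.top_fpf (two_iff.1 hz0).1
  haveI := Fact.mk hp
  have nc : ¬ ∀ a b : T, orderOf a = 2 → orderOf b = 2 → IsConj a b := fun h => by
    refine hpT ((hY _ (fun g _ y hy => ?_) fun h1 => ?_).trans (card_conj_dvd z0))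
    · refine h _ _ hz0 ?_
      obtain ⟨t, rfl⟩ := isConj_iff.1 hy
      rw [order_smul, ← hz0]; exact (MulAut.conj t).orderOf_eq z0
    · exact (two_iff.1 hz0).1 (isConj_one_left.1 h1)
  obtain ⟨S, -, hSR⟩ := fix_of_not_dvd hR (Set.univ : Set (Sylow 2 T)) (fun _ _ _ _ => trivial)
    (fun h => by
      rw [Nat.card_univ] at h
      obtain ⟨S⟩ : Nonempty (Sylow 2 T) := inferInstance
      exact hpT (h.trans (S.card_dvd_index.trans (index_dvd_card _))))
  have hSm : ∀ g ∈ R, ∀ s ∈ (S : Subgroup T), g • s ∈ (S : Subgroup T) := fun g hg s hs => by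
    rw [← hSR g hg, Sylow.pointwise_smul_def]; exact smul_mem_pointwise_smul _ _ _ hs
  have top : (S : Subgroup T) = ⊤ → IsPGroup 2 T := fun h =>
    (h ▸ S.isPGroup' : IsPGroup 2 (⊤ : Subgroup T)).of_equiv topEquiv
  have step1 : ∀ u : T, orderOf u = 2 → ¬ (S : Subgroup T) ≤ B H u := fun u hu hle => by
    have hu1 := (two_iff.1 hu).1
    refine (hS.ti (B H u) (fun h => S.not_dvd_index (h.trans (index_dvd_of_le hle))) hu
      (self_mem u) (fun t v hv h1 h3 => ?_)).elim (hS.B_ne_top hu1) nc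
    · have hv1 := (two_iff.1 hv).1
      have e1 := hS.B_eq hu1 hv1 h1
      have e2 := hS.B_eq hu1 (by simpa using hv1) h3
      refine mem_normalizer_iff.2 fun x => ⟨fun hx => ?_, fun hx => ?_⟩
      · rw [← e2]; exact conj_mem t (e1 ▸ hx)
      · rw [← e2] at hx
        have := conj_mem t⁻¹ hx
        rw [← e1]; simpa [mul_assoc] using this
  haveI : Nontrivial S := (nontrivial_iff_ne_bot _).2 (S.ne_bot_of_dvd_card h2)
  obtain ⟨z1, hz1⟩ : ∃ z : center S, orderOf z = 2 := by
    haveI := S.isPGroup'.center_nontrivial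
    refine exists_prime_orderOf_dvd_card' 2 ?_
    obtain ⟨n, hn0, hn⟩ := (IsPGroup.nontrivial_iff_card (S.isPGroup'.to_subgroup (center S))).1
      inferInstance
    exact hn ▸ dvd_pow_self 2 hn0.ne'
  by_cases hA : ∃ z ∈ (S : Subgroup T), orderOf z = 2 ∧ (∀ s ∈ (S : Subgroup T), Commute z s) ∧
      ∃ a : T, Commute z a ∧ a ^ 2 ≠ 1
  · obtain ⟨z, hzS, hz, hzc, a, hza, ha⟩ := hA
    have hz1 := (two_iff.1 hz).1
    by_cases hinv : ∀ g ∈ R, ∀ y ∈ (S : Subgroup T), y ∉ B H z → g • y ∉ B H z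
    · exfalso
      obtain ⟨s, hs, hsB⟩ := SetLike.not_le_iff_exists.1 (step1 z hz)
      have e1 := hY {y | y ∈ (S : Subgroup T) ∧ y ∉ B H z}
        (fun g hg y hy => ⟨hSm g hg y hy.1, hinv g hg y hy.1 hy.2⟩) (fun h => h.2 (one_mem _))
      have e3 : Nat.card {y | y ∈ (S : Subgroup T) ∧ y ∉ B H z} =
          Nat.card ↥((S : Subgroup T) ⊓ B H z) :=
        Nat.card_congr ((Equiv.mulLeft s).subtypeEquiv fun y =>
          ⟨fun hy => ⟨mul_mem hs hy.1, hS.idx hz ha hza (hzc s hs) (hzc y hy.1) hsB hy.2⟩,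
           fun hy => ⟨(mul_mem_cancel_left hs).1 hy.1,
            fun h => hsB ((mul_mem_cancel_right h).1 hy.2)⟩⟩)
      exact hpT ((e3 ▸ e1).trans (card_subgroup_dvd_card _))
    · push Not at hinv
      obtain ⟨g, hg, y, hy, hyB, hgy⟩ := hinv
      set w := g • z with hw
      have hw2 : orderOf w = 2 := by rw [hw, order_smul, hz]
      have hw1 := (two_iff.1 hw2).1
      have hwS : w ∈ (S : Subgroup T) := hSm g hg z hzS
      have hwc : ∀ s ∈ (S : Subgroup T), Commute w s := fun s hs => by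
        have := (hzc _ (hSm g⁻¹ (inv_mem hg) s hs)).map (MulDistribMulAction.toMonoidHom T g)
        simpa using this
      have hwa : Commute w (g • a) := hza.map (MulDistribMulAction.toMonoidHom T g)
      have ha' : (g • a) ^ 2 ≠ 1 := by rw [← smul_pow']; exact smul_ne g ha
      have hne : ∀ x, x ∈ B H z → x ∈ B H w → x = 1 := fun x h1 h3 => by
        by_contra hx
        have e := (hS.B_eq hz1 hx h1).symm.trans (hS.B_eq hw1 hx h3)
        have := smul_mem g⁻¹ (e ▸ hgy : g • y ∈ B H w)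
        exact hyB (by simpa [hw] using this)
      have hzw : z ∉ B H w := fun h => hz1 (hne z (self_mem _) h)
      have hwz : w ∉ B H z := fun h => hw1 (hne w h (self_mem _))
      have hzz : z * z = 1 := by rw [← sq]; exact (two_iff.1 hz).2
      have hww : w * w = 1 := by rw [← sq]; exact (two_iff.1 hw2).2
      have k1 : ∀ s ∈ (S : Subgroup T), s ∈ B H z → s = 1 ∨ s = z := fun s hs hB => by
        by_cases h : s ∈ B H w
        · exact Or.inl (hne s hB h)
        · right
          have := hne _ (mul_mem hB (self_mem _))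
            (hS.idx hw2 ha' hwa (hwc s hs) (hwc z hzS) h hzw)
          rw [← hzz] at this
          exact mul_right_cancel this
      have k2 : (S : Set T) = {1, z, w, z * w} := by
        ext s
        simp only [Set.mem_insert_iff, Set.mem_singleton_iff]
        refine ⟨fun hs => ?_, ?_⟩
        · by_cases h : s ∈ B H z
          · rcases k1 s hs h with h | h <;> simp [h]
          · rcases k1 _ (mul_mem hs hwS) (hS.idx hz ha hza (hzc s hs) (hzc w hwS) h hwz) with h | h
            · rw [← hww] at h; simp [mul_right_cancel h]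
            · right; right; right; rw [← h, mul_assoc, hww, mul_one]
        · rintro (h | h | h | h) <;> rw [h]
          exacts [(S : Subgroup T).one_mem, hzS, hwS, (S : Subgroup T).mul_mem hzS hwS]
      have hzw' : z ≠ w := fun h => hzw (h ▸ self_mem _)
      have hzw1 : z * w ≠ 1 := fun h => hzw' (mul_right_cancel (h.trans hww.symm))
      have hK : IsKleinFour (S : Subgroup T) := by
        refine ⟨?_, ?_⟩
        · have : Nat.card (S : Subgroup T) = (S : Set T).ncard := rfl
          rw [this, k2, Set.ncard_insert_of_notMem (by simp [hz1.symm, hw1.symm, hzw1.symm]),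
            Set.ncard_insert_of_notMem (by simp [hzw', hw1]),
            Set.ncard_insert_of_notMem (by simp [hz1]), Set.ncard_singleton]
        · refine Monoid.exponent_eq_prime_iff Nat.prime_two |>.2 fun s hs => ?_
          refine orderOf_eq_prime (Subtype.ext ?_) hs
          have h : (s : T) ∈ (S : Set T) := s.2
          rw [k2] at h
          simp only [Set.mem_insert_iff, Set.mem_singleton_iff] at h
          rcases h with h | h | h | h <;> simp [h, sq, hzz, hww]
          rw [mul_assoc, ← mul_assoc w, ← (hzc w hwS).eq, mul_assoc, hww, mul_one, hzz]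
      rcases S0202.result S hK with h | h
      · exfalso
        refine nc fun a b ha hb => ConjClasses.mk_eq_mk_iff_isConj.1 ?_
        have := (Nat.card_eq_one_iff_unique.1 h).1
        exact congrArg Subtype.val (Subsingleton.elim
          (⟨ConjClasses.mk a, a, ha, rfl⟩ : {C : ConjClasses T // ∃ t : T, orderOf t = 2 ∧
            ConjClasses.mk t = C}) ⟨ConjClasses.mk b, b, hb, rfl⟩)
      · obtain ⟨K, hKn, hKc⟩ := (S0203.result S hK).1 h
        have hcop : Nat.Coprime K.index (Nat.card K) := by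
          rw [hKc.symm.index_eq_card, ← hKc.index_eq_card]; exact S.card_coprime_index
        rcases hS.simple K (fun g x hx => by
          have h1 := K.pow_index_mem (g • x)
          refine zpowers_le.2 h1 (mem_zpowers_pow_iff.2 ?_)
          rw [order_smul]
          exact hcop.coprime_dvd_right (K.orderOf_dvd_natCard hx)) with h | h
        · exact top (by rw [← hKc.sup_eq_top, h, bot_sup_eq])
        · exact absurd (hKc.disjoint.le_bot ⟨h ▸ mem_top z, hzS⟩) hz1
  · push Not at hA
    have hz2 : orderOf ((z1 : S) : T) = 2 := by rw [orderOf_coe, orderOf_coe, hz1]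
    have hsq : ∀ s ∈ (S : Subgroup T), s ^ 2 = 1 := fun s hs => by
      have hc : ∀ s ∈ (S : Subgroup T), Commute ((z1 : S) : T) s := fun s hs =>
        (congrArg Subtype.val (mem_center_iff.1 z1.2 ⟨s, hs⟩)).symm
      exact hA _ (z1 : S).2 hz2 hc s (hc s hs)
    have hcm : ∀ s ∈ (S : Subgroup T), ∀ t ∈ (S : Subgroup T), Commute s t := fun s hs t ht => by
      have h1 := hsq _ (mul_mem hs ht)
      have h2 := hsq s hs
      have h3 := hsq t ht
      rw [sq] at h1 h2 h3
      show s * t = t * s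
      rw [← inv_eq_of_mul_eq_one_right h1, mul_inv_rev, inv_eq_of_mul_eq_one_right h2,
        inv_eq_of_mul_eq_one_right h3]
    have hC : ∀ u ∈ (S : Subgroup T), orderOf u = 2 → centralizer {u} = (S : Subgroup T) :=
      fun u hu h => S.3 (fun x => ⟨1, Subtype.ext (by
          simpa using hA u hu h (hcm u hu) x (mem_centralizer_singleton_iff.1 x.2).symm)⟩)
        fun s hs => mem_centralizer_singleton_iff.2 (hcm s hs u hu)
    refine (hS.ti S S.not_dvd_index hz2 (z1 : S).2 (fun t u hu h1 h3 => ?_)).elim top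
      fun h => absurd h nc
    · refine mem_normalizer_iff.2 fun x => ?_
      nth_rewrite 1 [← hC u h1 hu]
      rw [← hC _ h3 (hu ▸ (MulAut.conj t).orderOf_eq u), mem_centralizer_singleton_iff,
        mem_centralizer_singleton_iff]
      constructor
      · intro h
        calc _ = t * (x * u) * t⁻¹ := by group
          _ = _ := by rw [h]; group
      · intro h
        calc _ = t⁻¹ * (t * x * t⁻¹ * (t * u * t⁻¹)) * t := by group
          _ = _ := by rw [h]; group

theorem HS.elem (hS : HS T H c) [Nontrivial T] :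
    ∃ p : ℕ, p.Prime ∧ (∀ x y : T, x * y = y * x) ∧ ∀ x : T, x ^ p = 1 := by
  have hsol : Group.IsSolvable T := by
    rcases Nat.even_or_odd (Nat.card T) with h | h
    · haveI := Fact.mk Nat.prime_two
      haveI := (hS.two_group (even_iff_two_dvd.1 h)).isNilpotent
      infer_instance
    · exact S0205.result h
  have hc : commutator T = ⊥ := by
    rcases hS.simple (commutator T) (fun g x hx =>
      (characteristic_iff_le_comap.1 inferInstance (MulDistribMulAction.toMulEquiv T g)) hx)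
      with h | h
    · exact h
    · exact absurd h (Group.IsSolvable.commutator_lt_top_of_nontrivial T).ne
  have hcm : ∀ x y : T, x * y = y * x := fun x y =>
    commutatorElement_eq_one_iff_mul_comm.1 ((eq_bot_iff_forall _).1 hc _
      (commutator_mem_commutator (mem_top x) (mem_top y)))
  obtain ⟨p, hp, hd⟩ := Nat.exists_prime_and_dvd (Finite.one_lt_card (α := T)).ne'
  haveI := Fact.mk hp
  obtain ⟨z, hz⟩ := exists_prime_orderOf_dvd_card' p hd
  let M : Subgroup T :=
    { carrier := {x | x ^ p = 1}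
      one_mem' := one_pow p
      mul_mem' := fun {a b} ha hb => by
        show (a * b) ^ p = 1
        rw [Commute.mul_pow (hcm a b), ha, hb, one_mul]
      inv_mem' := fun {a} ha => by show a⁻¹ ^ p = 1; rw [inv_pow, ha, inv_one] }
  refine ⟨p, hp, hcm, fun x => ?_⟩
  rcases hS.simple M (fun g x hx => by
    show (g • x) ^ p = 1
    rw [← smul_pow', hx, smul_one]) with h | h
  · have : z ∈ M := by show z ^ p = 1; rw [← hz]; exact pow_orderOf_eq_one z
    rw [h, mem_bot] at this
    exact absurd (by rw [← hz, this, orderOf_one]) hp.ne_one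
  · exact (h ▸ mem_top x : x ∈ M)

end Cfsg.Agent.Neu.H32
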