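import Mathlib

/-! Half-transitive 2-groups of linear maps: counting lemmas. -/

set_option autoImplicit false
open MulAction Subgroup

namespace Cfsg.Agent.Neu.HP

theorem pow_add_one {q j k : ℕ} (hq : Odd q) (hq1 : 1 < q) (hj : j ≠ 0) (h : q ^ j + 1 = 2 ^ k) :
    j = 1 := by
  rcases Nat.even_or_odd' j with ⟨i, rfl | rfl⟩
  · exfalso
    obtain ⟨s, hs⟩ := hq.pow (n := i)
    have h1 : 1 < q ^ i := Nat.one_lt_pow (by omega) hq1
    rw [mul_comm, pow_mul, hs] at h
    rcases k with _ | _ | k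
    · nlinarith
    · have : 1 ≤ s := by omega
      have e : (2 * s + 1) ^ 2 + 1 = 2 := h
      nlinarith
    · have : (2 * s + 1) ^ 2 + 1 = 4 * (s * s + s) + 2 := by ring
      rw [this, pow_succ, pow_succ] at h; omega
  · have key : ∀ i : ℕ, ∃ S : ℤ, Odd S ∧ (q : ℤ) ^ (2 * i + 1) + 1 = (q + 1) * S := by
      intro i
      induction i with
      | zero => exact ⟨1, odd_one, by simp⟩
      | succ i ih =>
        obtain ⟨S, hS, e⟩ := ih
        have hq' : Odd (q : ℤ) := by exact_mod_cast hq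
        refine ⟨q ^ 2 * S - (q - 1), (hq'.pow.mul hS).sub_even (hq'.sub_odd odd_one), ?_⟩
        linear_combination (q : ℤ) ^ 2 * e
    obtain ⟨S, hS, e⟩ := key i
    have e2 : ((2 ^ k : ℕ) : ℤ) = (q + 1) * S := by rw [← h, ← e]; push_cast; ring
    have h3 : S.natAbs ∣ 2 ^ k := Int.natAbs_dvd_natAbs.2 (Dvd.intro_left _ e2.symm)
    have h4 : S.natAbs = 1 := Nat.eq_one_of_dvd_coprimes
      (Nat.Coprime.pow_right k (Nat.coprime_two_right.2 (Int.natAbs_odd.2 hS))) dvd_rfl h3
    have h5 : 2 ^ k = q + 1 := by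
      have := congrArg Int.natAbs e2
      rw [Int.natAbs_mul, h4, mul_one, Int.natAbs_natCast] at this
      rw [this]; rfl
    have : q ^ (2 * i + 1) = q ^ 1 := by rw [pow_one]; omega
    exact Nat.pow_right_injective hq1 this

theorem pow_sub_one {q j k : ℕ} (hq : Odd q) (hq1 : 1 < q) (hj : j ≠ 0) (h : q ^ j = 2 ^ k + 1) :
    j = 1 ∨ (q = 3 ∧ j = 2) := by
  rcases Nat.even_or_odd' j with ⟨i, rfl | rfl⟩
  · right
    have h1 : 1 < q ^ i := Nat.one_lt_pow (by omega) hq1
    obtain ⟨s, hs⟩ : ∃ s, q ^ i = s + 1 := ⟨q ^ i - 1, by omega⟩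
    rw [mul_comm, pow_mul, hs] at h
    have e : s * (s + 2) = 2 ^ k := by nlinarith
    obtain ⟨a, -, ha⟩ := (Nat.dvd_prime_pow Nat.prime_two).1 (Dvd.intro _ e)
    obtain ⟨b, -, hb⟩ := (Nat.dvd_prime_pow Nat.prime_two).1 (Dvd.intro_left _ e)
    have hs2 : s = 2 := by
      have hodd := hq.pow (n := i)
      rw [hs, Nat.odd_iff] at hodd
      rcases a with _ | _ | a
      · omega
      · omega
      · rcases b with _ | _ | b
        · omega
        · omega
        · rw [pow_succ, pow_succ] at ha hb; omega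
    have h3 : q ^ i = 3 := by omega
    have := (Nat.Prime.pow_eq_iff Nat.prime_three).1 h3
    omega
  · left
    have key : ∀ i : ℕ, ∃ S : ℤ, Odd S ∧ (q : ℤ) ^ (2 * i + 1) - 1 = (q - 1) * S := by
      intro i
      induction i with
      | zero => exact ⟨1, odd_one, by simp⟩
      | succ i ih =>
        obtain ⟨S, hS, e⟩ := ih
        have hq' : Odd (q : ℤ) := by exact_mod_cast hq
        refine ⟨q ^ 2 * S + (q + 1), (hq'.pow.mul hS).add_even (hq'.add_odd odd_one), ?_⟩
        linear_combination (q : ℤ) ^ 2 * e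
    obtain ⟨S, hS, e⟩ := key i
    have e2 : ((2 ^ k : ℕ) : ℤ) = (q - 1) * S := by
      rw [← e]; have := congrArg (Nat.cast (R := ℤ)) h; push_cast at this ⊢; linarith
    have h3 : S.natAbs ∣ 2 ^ k := Int.natAbs_dvd_natAbs.2 (Dvd.intro_left _ e2.symm)
    have h4 : S.natAbs = 1 := Nat.eq_one_of_dvd_coprimes
      (Nat.Coprime.pow_right k (Nat.coprime_two_right.2 (Int.natAbs_odd.2 hS))) dvd_rfl h3
    have h5 : 2 ^ k + 1 = q := by
      have := congrArg Int.natAbs e2
      rw [Int.natAbs_mul, h4, mul_one, Int.natAbs_natCast] at this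
      omega
    have : q ^ (2 * i + 1) = q ^ 1 := by rw [pow_one]; omega
    exact Nat.pow_right_injective hq1 this

variable {G V : Type*} [Group G] [Finite G] [AddCommGroup V] [Finite V] [DistribMulAction G V]

structure HT (G V : Type*) [Group G] [AddCommGroup V] [DistribMulAction G V] (c : ℕ) : Prop where
  card : ∀ v : V, v ≠ 0 → Nat.card (stabilizer G v) = c
  faith : ∀ g : G, (∀ v : V, g • v = v) → g = 1
  odd : ∀ v : V, v = -v → v = 0

variable {c : ℕ}

theorem HT.half (h : HT G V c) (v : V) : ∃ w, w + w = v := by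
  have : Function.Injective fun w : V => w + w := fun a b hab => by
    simp only at hab
    have := h.odd (a - b) (by rw [eq_neg_iff_add_eq_zero]; linear_combination (norm := abel1) hab)
    exact sub_eq_zero.1 this
  exact Finite.surjective_of_injective this v

theorem HT.split (h : HT G V c) {u : G} (hu : u * u = 1) (v : V) :
    ∃ a b, u • a = a ∧ u • b = -b ∧ v = a + b := by
  obtain ⟨w, rfl⟩ := h.half v
  refine ⟨w + u • w, w - u • w, ?_, ?_, by abel⟩
  · rw [smul_add, ← mul_smul, hu, one_smul, add_comm]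
  · rw [smul_sub, ← mul_smul, hu, one_smul, neg_sub]

theorem HT.comp (h : HT G V c) {u g : G} (hg : g * u = u * g) {a b : V} (ha : u • a = a)
    (hb : u • b = -b) (e : g • (a + b) = a + b) : g • a = a ∧ g • b = b := by
  have e2 : g • (a - b) = a - b := by
    have : a - b = u • (a + b) := by rw [smul_add, ha, hb, sub_eq_add_neg]
    rw [this, ← mul_smul, hg, mul_smul, e]
  rw [smul_add] at e
  rw [smul_sub] at e2
  have h1 := h.odd (g • a - a) (by rw [eq_neg_iff_add_eq_zero]; linear_combination (norm := abel1) e + e2)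
  have h2 := h.odd (g • b - b) (by rw [eq_neg_iff_add_eq_zero]; linear_combination (norm := abel1) e - e2)
  exact ⟨sub_eq_zero.1 h1, sub_eq_zero.1 h2⟩

theorem HT.central (h : HT G V c) {z : G} (hz : z ∈ center G) (hz1 : z ≠ 1) (hz2 : z * z = 1)
    (v : V) : z • v = -v := by
  obtain ⟨a, b, ha, hb, rfl⟩ := h.split hz2 v
  suffices a = 0 by rw [this, zero_add, hb]
  by_contra ha0
  obtain ⟨w, hw⟩ : ∃ w : V, z • w ≠ w := by
    by_contra hh; push Not at hh; exact hz1 (h.faith z hh)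
  obtain ⟨a', b', ha', hb', rfl⟩ := h.split hz2 w
  have hb0 : b' ≠ 0 := fun e => hw (by simpa [e] using ha')
  have hab : a + b' ≠ 0 := fun e => by
    have := h.comp (g := z) rfl ha hb' (by rw [e, smul_zero])
    exact hb0 (h.odd _ (this.2.symm.trans hb'))
  have hle : stabilizer G (a + b') ≤ stabilizer G a := fun g hg =>
    (h.comp (mem_center_iff.1 hz g) ha hb' hg).1
  have := eq_of_le_of_card_ge hle (by rw [h.card _ ha0, h.card _ hab])
  have hz' : z ∈ stabilizer G (a + b') := this ▸ ha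
  exact hb0 (h.odd _ ((h.comp rfl ha hb' hz').2.symm.trans hb'))

theorem HT.card_split (h : HT G V c) {u : G} (hu : u * u = 1) :
    Nat.card {v : V // u • v = v} * Nat.card {v : V // u • v = -v} = Nat.card V := by
  rw [← Nat.card_prod]
  refine Nat.card_congr (Equiv.ofBijective (fun x => x.1.1 + x.2.1) ⟨fun x y hxy => ?_, fun v => ?_⟩)
  · have h1 : u • (x.1.1 - y.1.1) = x.1.1 - y.1.1 := by rw [smul_sub, x.1.2, y.1.2]
    have h2 : x.1.1 - y.1.1 = y.2.1 - x.2.1 := by
      simp only at hxy; linear_combination (norm := abel1) hxy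
    have h3 : x.1.1 - y.1.1 = 0 := h.odd _ (by
      nth_rewrite 1 [← h1]; rw [h2, smul_sub, x.2.2, y.2.2]; abel)
    exact Prod.ext (Subtype.ext (sub_eq_zero.1 h3)) (Subtype.ext (sub_eq_zero.1 (h2 ▸ h3)).symm)
  · obtain ⟨a, b, ha, hb, rfl⟩ := h.split hu v
    exact ⟨(⟨a, ha⟩, ⟨b, hb⟩), rfl⟩

theorem HT.card_sq (h : HT G V c) {z t g : G} (hz : ∀ v : V, z • v = -v) (ht : t * t = 1)
    (hg : g * t * g⁻¹ = t * z) :
    Nat.card {v : V // t • v = -v} = Nat.card {v : V // t • v = v} ∧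
      Nat.card {v : V // t • v = v} ^ 2 = Nat.card V := by
  have : Nat.card {v : V // t • v = v} = Nat.card {v : V // t • v = -v} :=
    Nat.card_congr ((MulAction.toPerm g).subtypeEquiv fun v => by
      have e : t • g • v = -(g • t • v) := by
        have : (t * z) • g • v = g • t • v := by rw [← hg]; simp [mul_smul]
        rw [← this, mul_smul, hz, smul_neg, neg_neg]
      simp only [toPerm_apply, e, neg_inj, smul_left_cancel_iff])
  exact ⟨this.symm, by rw [← h.card_split ht, ← this, sq]⟩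

theorem HT.two (h : HT G V 2) {v : V} (hv : v ≠ 0) {s t : G} (hs : s • v = v) (ht : t • v = v)
    (hs1 : s ≠ 1) : t = 1 ∨ t = s := by
  obtain ⟨y, -, hy⟩ := (Nat.card_eq_two_iff' (1 : stabilizer G v)).1 (h.card v hv)
  by_cases h1 : t = 1
  · exact Or.inl h1
  · exact Or.inr (congrArg Subtype.val ((hy ⟨t, ht⟩ fun e => h1 (congrArg Subtype.val e)).trans
      (hy ⟨s, hs⟩ fun e => hs1 (congrArg Subtype.val e)).symm))

theorem HT.exists_inv (h : HT G V 2) {v : V} (hv : v ≠ 0) :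
    ∃ t : G, t ≠ 1 ∧ t * t = 1 ∧ t • v = v := by
  obtain ⟨y, hy, -⟩ := (Nat.card_eq_two_iff' (1 : stabilizer G v)).1 (h.card v hv)
  have := pow_card_eq_one' (x := y)
  rw [h.card v hv, sq] at this
  exact ⟨y, fun e => hy (Subtype.ext e), congrArg Subtype.val this, y.2⟩

theorem card_ne_zero (p : V → Prop) (h0 : p 0) :
    Nat.card {v : V // v ≠ 0 ∧ p v} + 1 = Nat.card {v : V // p v} := by
  have := Set.ncard_diff_singleton_add_one (s := {v | p v}) (a := 0) h0
  rw [← Nat.card_coe_set_eq, ← Nat.card_coe_set_eq] at this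
  refine Eq.trans ?_ this
  congr 1
  exact Nat.card_congr (Equiv.subtypeEquivRight fun v => and_comm)

/-- The number of non-central involutions. -/
theorem HT.cnt (h : HT G V 2) [Nontrivial V] {z : G} (hz : ∀ v : V, z • v = -v) {r : ℕ}
    (hr : r ^ 2 = Nat.card V) (hJ : ∀ t : G, t ≠ 1 → t ≠ z → t * t = 1 → ∃ g, g * t * g⁻¹ = t * z) :
    Nat.card {t : G // t ≠ 1 ∧ t ≠ z ∧ t * t = 1} = r + 1 := by
  have h1 : ∀ t : {t : G // t ≠ 1 ∧ t ≠ z ∧ t * t = 1},
      Nat.card {v : V // v ≠ 0 ∧ t.1 • v = v} + 1 = r := fun t => by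
    obtain ⟨g, hg⟩ := hJ t t.2.1 t.2.2.1 t.2.2.2
    rw [card_ne_zero (fun v => t.1 • v = v) (smul_zero _)]
    exact Nat.pow_left_injective two_ne_zero ((h.card_sq hz t.2.2.2 hg).2.trans hr.symm)
  have h2 : Nat.card (Σ t : {t : G // t ≠ 1 ∧ t ≠ z ∧ t * t = 1}, {v : V // v ≠ 0 ∧ t.1 • v = v}) =
      Nat.card {v : V // v ≠ 0 ∧ True} := by
    refine Nat.card_congr (Equiv.ofBijective (fun x => ⟨x.2.1, x.2.2.1, trivial⟩)
      ⟨fun ⟨t, v, hv⟩ ⟨s, w, hw⟩ e => ?_, fun ⟨v, hv, _⟩ => ?_⟩)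
    · obtain rfl : v = w := congrArg Subtype.val e
      obtain rfl : t = s := Subtype.ext ((h.two hv.1 hw.2 hv.2 s.2.1).resolve_left t.2.1)
      rfl
    · obtain ⟨t, h1, h2, h3⟩ := h.exists_inv hv
      exact ⟨⟨⟨t, h1, fun e => hv (h.odd v (by rw [← hz, ← e, h3])), h2⟩, v, hv, h3⟩, rfl⟩
  have := Fintype.ofFinite {t : G // t ≠ 1 ∧ t ≠ z ∧ t * t = 1}
  rw [Nat.card_sigma] at h2
  have h3 := card_ne_zero (V := V) (fun _ => True) trivial
  rw [Nat.card_congr (Equiv.subtypeUnivEquiv (p := fun _ : V => True) fun _ => trivial), ← h2,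
    Finset.sum_congr rfl (g := fun _ => r - 1) (fun t _ => by have := h1 t; omega), ← hr] at h3
  have h4 : 1 < r ^ 2 := hr ▸ Finite.one_lt_card
  obtain ⟨s, rfl⟩ : ∃ s, r = s + 2 := ⟨r - 2, by
    rcases r with _ | _ | r
    · simp at h4
    · simp at h4
    · omega⟩
  simp only [Finset.sum_const, Finset.card_univ, smul_eq_mul] at h3
  rw [Nat.card_eq_fintype_card]
  have h5 : s + 2 - 1 = s + 1 := rfl
  rw [h5] at h3
  exact Nat.eq_of_mul_eq_mul_right (Nat.succ_pos s) (by nlinarith)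

theorem HT.dvd (h : HT G V c) (Y : Set V) (hY : ∀ g : G, ∀ y ∈ Y, g • y ∈ Y) (h0 : (0 : V) ∉ Y) :
    Nat.card G ∣ c * Nat.card Y := by
  let S : SubMulAction G V := ⟨Y, fun g y hy => hY g y hy⟩
  have := Fintype.ofFinite (orbitRel.Quotient G S)
  have e : Nat.card Y = Nat.card S := rfl
  rw [e, Nat.card_congr (selfEquivSigmaOrbits G S), Nat.card_sigma, Finset.mul_sum]
  refine Finset.dvd_sum fun ω _ => dvd_of_eq ?_
  rw [Nat.card_coe_set_eq, ← index_stabilizer, ← (stabilizer G ω.out).card_mul_index,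
    SubMulAction.stabilizer_of_subMul, h.card _ fun e => h0 (e ▸ ω.out.2)]

/-- `u` generates with `z = -1` a normal four-group. -/
structure NF (V : Type*) [AddCommGroup V] [DistribMulAction G V] (z u : G) : Prop where
  neg : ∀ v : V, z • v = -v
  sq : u * u = 1
  conj : ∀ g : G, g * u = u * g ∨ g * u = u * z * g
  nc : ∃ g : G, g * u ≠ u * g

variable {z u : G}

omit [Finite G] [Finite V] in
theorem HT.zc (h : HT G V c) (hz : ∀ v : V, z • v = -v) (g : G) : g * z = z * g := by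
  have := h.faith ((z * g)⁻¹ * (g * z)) fun v => by
    rw [mul_smul, inv_smul_eq_iff, mul_smul, mul_smul, hz, hz, smul_neg]
  rw [inv_mul_eq_one] at this; exact this.symm

omit [Finite G] [Finite V] in
theorem HT.zz (h : HT G V c) (hz : ∀ v : V, z • v = -v) : z * z = 1 :=
  h.faith _ fun v => by rw [mul_smul, hz, hz, neg_neg]

omit [Finite G] [Finite V] in
theorem NF.symm (h : HT G V c) (n : NF V z u) : NF V z (u * z) := by
  have hc := h.zc n.neg
  have hz := h.zz n.neg
  refine ⟨n.neg, ?_, fun g => ?_, ?_⟩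
  · rw [mul_assoc, ← mul_assoc z, ← hc u, mul_assoc, hz, mul_one, n.sq]
  · rcases n.conj g with e | e
    · left; rw [← mul_assoc, e, mul_assoc, hc, mul_assoc]
    · right; rw [← mul_assoc, e, mul_assoc, hc g, ← mul_assoc]
  · obtain ⟨g, hg⟩ := n.nc
    exact ⟨g, fun e => hg (by
      rw [mul_assoc, ← hc g, ← mul_assoc, ← mul_assoc] at e; exact mul_right_cancel e)⟩

omit [Finite G] [Finite V] in
theorem NF.uz (n : NF V z u) (v : V) : (u * z) • v = -(u • v) := by rw [mul_smul, n.neg, smul_neg]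

omit [Finite G] [Finite V] in
theorem NF.swap (n : NF V z u) {g : G} (hg : g * u ≠ u * g) (v : V) : u • g • v = -(g • u • v) := by
  rw [← mul_smul g, (n.conj g).resolve_left hg, mul_smul (u * z), n.uz, neg_neg]

omit [Finite G] [Finite V] in
theorem NF.index (h : HT G V c) (n : NF V z u) : (centralizer {u}).index = 2 := by
  obtain ⟨a, ha⟩ := n.nc
  have ha' := (n.conj a).resolve_left ha
  refine index_eq_two_iff.2 ⟨a, fun b => ?_⟩
  rw [mem_centralizer_singleton_iff, mem_centralizer_singleton_iff]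
  by_cases hb : b * u = u * b
  · refine Or.inr ⟨hb, fun e => ha ?_⟩
    rw [mul_assoc, ← mul_assoc u, ← hb, mul_assoc] at e; exact mul_left_cancel e
  · refine Or.inl ⟨?_, hb⟩
    calc b * a * u = b * u * (z * a) := by rw [mul_assoc, ha']; group
      _ = u * (z * (b * z)) * a := by rw [(n.conj b).resolve_left hb]; group
      _ = _ := by rw [h.zc n.neg b, ← mul_assoc z, h.zz n.neg]; group

theorem NF.pm (h : HT G V c) (n : NF V z u) {a b : V} (ha : u • a = a) (hb : u • b = -b)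
    (ha0 : a ≠ 0) {g : G} (hg : g • a = a) : g • b = b ∨ g • b = -b := by
  by_cases hb0 : b = 0
  · simp [hb0]
  have hbb : b ≠ -b := fun e => hb0 (h.odd b e)
  have hab : a + b ≠ 0 := fun e => hbb
    ((h.comp (g := u) rfl ha hb (by rw [e, smul_zero])).2.symm.trans hb)
  have h1 : c ≤ Nat.card ↥(stabilizer G b ⊓ stabilizer G a) * 2 := by
    rw [← h.card _ hab, ← ((centralizer {u}).subgroupOf (stabilizer G (a + b))).card_mul_index]
    refine Nat.mul_le_mul ?_ ?_
    · rw [← inf_subgroupOf_right, Nat.card_congr (subgroupOfEquivOfLe inf_le_right).toEquiv]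
      exact card_le_of_le fun k hk =>
        (h.comp (mem_centralizer_singleton_iff.1 hk.1) ha hb hk.2).symm
    · rw [← n.index h]
      exact relIndex_le_of_le_right (L := ⊤) le_top (by rw [relIndex_top_right, n.index h]; omega)
        |>.trans (relIndex_top_right _).le
  have h2 : (orbit (stabilizer G a) b).ncard ≤ 2 := by
    rw [← index_stabilizer]
    have h3 := (stabilizer (stabilizer G a) b).card_mul_index
    have h4 : Nat.card (stabilizer (stabilizer G a) b) =
        Nat.card ↥(stabilizer G b ⊓ stabilizer G a) := by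
      rw [← Nat.card_congr (subgroupOfEquivOfLe inf_le_right).toEquiv, inf_subgroupOf_right]; rfl
    rw [h.card _ ha0, h4] at h3
    rw [← h3] at h1
    exact Nat.le_of_mul_le_mul_left h1 Nat.card_pos
  by_contra hh
  push Not at hh
  have h5 : ({b, -b, g • b} : Set V) ⊆ orbit (stabilizer G a) b := by
    rintro x (rfl | rfl | rfl)
    exacts [mem_orbit_self _, ⟨⟨u, ha⟩, hb⟩, ⟨⟨g, hg⟩, rfl⟩]
  have h6 := (Set.ncard_le_ncard h5).trans h2
  rw [Set.ncard_eq_three.2 ⟨_, _, _, hbb, hh.1.symm, hh.2.symm, rfl⟩] at h6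
  omega

theorem NF.scal (h : HT G V c) (n : NF V z u) {a : V} (ha : u • a = a) (ha0 : a ≠ 0) {g : G}
    (hg : g • a = a) : (∀ b : V, u • b = -b → g • b = b) ∨ ∀ b : V, u • b = -b → g • b = -b := by
  by_contra hh
  push Not at hh
  obtain ⟨⟨b, hb, h1⟩, b', hb', h2⟩ := hh
  have e1 := (n.pm h ha hb ha0 hg).resolve_left h1
  have e2 := (n.pm h ha hb' ha0 hg).resolve_right h2
  rcases n.pm h ha (b := b + b') (by rw [smul_add, hb, hb', neg_add]) ha0 hg with e | e
  · rw [smul_add, e2, add_left_inj] at e; exact h1 e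
  · rw [smul_add, e1, neg_add, add_right_inj] at e; exact h2 e

theorem NF.stab (h : HT G V c) (n : NF V z u) {a : V} (ha : u • a = a) (ha0 : a ≠ 0) {g : G}
    (hg : g • a = a) : g = 1 ∨ g = u := by
  have key : ∀ k : G, k • a = a → (∀ b : V, u • b = -b → k • b = b) → k = 1 := fun k hk hb => by
    obtain ⟨x, hx⟩ := n.nc
    have h1 : u • x • a = -(x • a) := by rw [n.swap hx, ha]
    rcases (n.symm h).scal h (a := x • a) (by rw [n.uz, h1, neg_neg]) ((smul_ne_zero_iff_ne x).2 ha0)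
      (hb _ h1) with e | e
    · refine h.faith k fun v => ?_
      obtain ⟨a', b', ha', hb', rfl⟩ := h.split n.sq v
      rw [smul_add, hb b' hb', e a' (by rw [n.uz, ha'])]
    · exact absurd (h.odd a (hk.symm.trans (e a (by rw [n.uz, ha])))) ha0
  rcases n.scal h ha ha0 hg with e | e
  · exact Or.inl (key g hg e)
  · have := key (u * g) (by rw [mul_smul, hg, ha]) fun b hb => by
      rw [mul_smul, e b hb, smul_neg, hb, neg_neg]
    exact Or.inr (mul_left_cancel (this.trans n.sq.symm))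

theorem NF.exists_a (h : HT G V c) [Nontrivial V] (n : NF V z u) : ∃ a : V, a ≠ 0 ∧ u • a = a := by
  obtain ⟨v, hv⟩ := exists_ne (0 : V)
  obtain ⟨a, b, ha, hb, rfl⟩ := h.split n.sq v
  by_cases h0 : a = 0
  · obtain ⟨x, hx⟩ := n.nc
    refine ⟨x • b, (smul_ne_zero_iff_ne x).2 (by simpa [h0] using hv), ?_⟩
    rw [n.swap hx, hb, smul_neg, neg_neg]
  · exact ⟨a, h0, ha⟩

omit [Finite G] [Finite V] in
theorem NF.ne_one (n : NF V z u) : u ≠ 1 := fun e => by
  obtain ⟨x, hx⟩ := n.nc; simp [e] at hx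

theorem NF.c_eq (h : HT G V c) [Nontrivial V] (n : NF V z u) : c = 2 := by
  obtain ⟨a, ha0, ha⟩ := n.exists_a h
  rw [← h.card a ha0, Nat.card_eq_two_iff' 1]
  refine ⟨⟨u, ha⟩, fun e => n.ne_one (congrArg Subtype.val e), fun g hg => Subtype.ext ?_⟩
  exact (n.stab h ha ha0 g.2).resolve_left fun e => hg (Subtype.ext e)

theorem NF.cent (h : HT G V c) (n : NF V z u) {t : G} (h1 : t ≠ 1) (hz : t ≠ z) (ht : t * t = 1)
    (hc : t * u = u * t) : t = u ∨ t = u * z := by
  obtain ⟨v, hv⟩ : ∃ v : V, t • v ≠ -v := by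
    by_contra hh; push Not at hh
    exact hz (inv_mul_eq_one.1 (h.faith (z⁻¹ * t) fun v => by
      rw [mul_smul, hh, inv_smul_eq_iff, n.neg])).symm
  obtain ⟨w, w', hw, hw', rfl⟩ := h.split ht v
  have hw0 : w ≠ 0 := fun e => hv (by simpa [e] using hw')
  obtain ⟨a, b, ha, hb, rfl⟩ := h.split n.sq w
  obtain ⟨e1, e2⟩ := h.comp hc ha hb hw
  by_cases h0 : a = 0
  · exact Or.inr (((n.symm h).stab h (by rw [n.uz, hb, neg_neg]) (by simpa [h0] using hw0)
      e2).resolve_left h1)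
  · exact Or.inl ((n.stab h ha h0 e1).resolve_left h1)

theorem NF.count (h : HT G V c) [Nontrivial V] (n : NF V z u) (hG : IsPGroup 2 G) :
    Nat.card {v : V // u • v = v} ^ 2 = Nat.card V ∧
    Nat.card {v : V // u • v = -v} = Nat.card {v : V // u • v = v} ∧
    Nat.card {t : G // t * u ≠ u * t ∧ t * t = 1} + 1 = Nat.card {v : V // u • v = v} ∧
    ∃ m, Nat.card {v : V // u • v = v} = 2 ^ m + 1 := by
  obtain rfl := n.c_eq h
  have hc := h.zc n.neg
  obtain ⟨x, hx⟩ := n.nc
  have hx' : x * u * x⁻¹ = u * z := by rw [(n.conj x).resolve_left hx]; group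
  obtain ⟨h1, h2⟩ := h.card_sq n.neg n.sq hx'
  have hz1 : z ≠ 1 := fun e => hx (by simpa [e] using (n.conj x).resolve_left hx)
  have h3 := h.cnt n.neg h2 fun t t1 tz tt => by
    by_cases ht : t * u = u * t
    · rcases n.cent h t1 tz tt ht with rfl | rfl
      · exact ⟨x, hx'⟩
      · exact ⟨x, by rw [← mul_assoc, mul_assoc _ z, ← hc, ← mul_assoc, hx']⟩
    · refine ⟨u, ?_⟩
      rw [inv_eq_of_mul_eq_one_right n.sq, mul_assoc, (n.conj t).resolve_left ht, ← mul_assoc,
        ← mul_assoc, n.sq, one_mul, hc]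
  have h4 : {t : G | t ≠ 1 ∧ t ≠ z ∧ t * t = 1} =
      insert u (insert (u * z) {t | t * u ≠ u * t ∧ t * t = 1}) := by
    ext t
    simp only [Set.mem_setOf_eq, Set.mem_insert_iff]
    refine ⟨fun ⟨t1, tz, tt⟩ => ?_, ?_⟩
    · by_cases ht : t * u = u * t
      · rcases n.cent h t1 tz tt ht with e | e <;> simp [e]
      · exact Or.inr (Or.inr ⟨ht, tt⟩)
    · rintro (rfl | rfl | ⟨ht, tt⟩)
      · exact ⟨n.ne_one, fun e => hx (by rw [e, hc]), n.sq⟩
      · exact ⟨(n.symm h).ne_one, by simpa using n.ne_one, (n.symm h).sq⟩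
      · exact ⟨fun e => ht (by simp [e]), fun e => ht (by rw [e, hc]), tt⟩
  have h5 : Nat.card {t : G // t * u ≠ u * t ∧ t * t = 1} + 1 = Nat.card {v : V // u • v = v} := by
    have : Nat.card {t : G // t ≠ 1 ∧ t ≠ z ∧ t * t = 1} =
        {t : G | t ≠ 1 ∧ t ≠ z ∧ t * t = 1}.ncard := rfl
    rw [this, h4, Set.ncard_insert_of_notMem (by simp [hz1]),
      Set.ncard_insert_of_notMem (fun e => e.1 (by rw [mul_assoc, hc u]))] at h3
    exact Nat.succ_injective h3
  refine ⟨h2, h1, h5, ?_⟩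
  have h6 : Nat.card {t : G // t * u ≠ u * t ∧ t * t = 1} * 2 ≤ Nat.card G := by
    rw [← (centralizer {u}).card_mul_index, n.index h]
    refine Nat.mul_le_mul_right _ (Nat.card_le_card_of_injective (fun t => ⟨t.1 * x, ?_⟩)
      fun s t e => Subtype.ext (mul_right_cancel (congrArg Subtype.val e)))
    rw [mul_mem_iff_of_index_two (n.index h), mem_centralizer_singleton_iff,
      mem_centralizer_singleton_iff]
    exact iff_of_false t.2.1 hx
  have h7 := h.dvd ({v | v ≠ 0 ∧ u • v = v} ∪ {v | v ≠ 0 ∧ u • v = -v}) (fun g y hy => by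
    have h0 : g • y ≠ 0 := (smul_ne_zero_iff_ne g).2 (hy.elim (·.1) (·.1))
    by_cases hg : g * u = u * g
    · refine hy.imp (fun e => ⟨h0, ?_⟩) fun e => ⟨h0, ?_⟩
      · rw [← mul_smul, ← hg, mul_smul, e.2]
      · rw [← mul_smul, ← hg, mul_smul, e.2, smul_neg]
    · refine (hy.imp (fun e => ⟨h0, ?_⟩) fun e => ⟨h0, ?_⟩).symm
      · rw [n.swap hg, e.2]
      · rw [n.swap hg, e.2, smul_neg, neg_neg]) (by simp)
  rw [Nat.card_coe_set_eq, Set.ncard_union_eq (Set.disjoint_left.2 fun v h1 h2 =>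
    h1.1 (h.odd v (h1.2.symm.trans h2.2)))] at h7
  have e1 := card_ne_zero (fun v : V => u • v = v) (smul_zero _)
  have e2 := card_ne_zero (fun v : V => u • v = -v) (by simp)
  have e3 : {v : V | v ≠ 0 ∧ u • v = v}.ncard = Nat.card {v : V // v ≠ 0 ∧ u • v = v} := rfl
  have e4 : {v : V | v ≠ 0 ∧ u • v = -v}.ncard = Nat.card {v : V // v ≠ 0 ∧ u • v = -v} := rfl
  have h8 : 1 < Nat.card {v : V // u • v = v} ^ 2 := h2 ▸ Finite.one_lt_card
  rw [e3, e4] at h7
  generalize Nat.card {t : G // t * u ≠ u * t ∧ t * t = 1} = s at *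
  obtain ⟨k, hk⟩ := h7
  haveI := Fact.mk Nat.prime_two
  obtain ⟨N, hN⟩ := hG.exists_card_eq
  have hs : s ≠ 0 := by rintro rfl; rw [← h5] at h8; simp at h8
  have hk' : 4 * s = Nat.card G * k := by omega
  have : s ∣ 2 ^ N := by
    rw [← hN]
    rcases k with _ | _ | _ | k
    · omega
    · exact ⟨4, by omega⟩
    · exact ⟨2, by omega⟩
    · have : Nat.card G * 3 ≤ Nat.card G * (k + 1 + 1 + 1) := Nat.mul_le_mul_left _ (by omega)
      omega
  obtain ⟨m, -, hm⟩ := (Nat.dvd_prime_pow Nat.prime_two).1 this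
  exact ⟨m, by omega⟩

end Cfsg.Agent.Neu.HP
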